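/-
helper51 for helper57's farm (even-dimensional orthogonal groups, plus type): common lemmas on
the orthogonal complement for the polar form.
-/
import Cfsg.Agent.Lib.Helper57.OE.Defs2
import Cfsg.Agent.Lib.Helper37.OE.P6a

set_option autoImplicit false

namespace Cfsg.Agent.Lib.Helper51.OE

open Cfsg Cfsg.Geo Matrix Cfsg.Agent.Lib.Helper13.Asch Cfsg.Agent.Lib.Helper90.Sp
  Cfsg.Agent.Lib.Helper57.OE Cfsg.Agent.Lib.Helper37.OE
open scoped Kronecker MatrixGroups

variable {ι : Type} [Fintype ι] [DecidableEq ι] {F : Type*} [Field F] {Q : (ι → F) → F}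

theorem polB_nondeg (hQ : IsNondegenerateQuadraticForm Q) : (polB hQ).Nondegenerate := by
  constructor
  · intro x hx
    by_contra h0
    obtain ⟨-, y, hy⟩ := hQ.nondegenerate x h0
    exact hy (hx y)
  · intro x hx
    by_contra h0
    obtain ⟨⟨y, hy⟩, -⟩ := hQ.nondegenerate x h0
    exact hy (hx y)

/-- the orthogonal complement for the polar form -/
noncomputable def perp (hQ : IsNondegenerateQuadraticForm Q) (W : Submodule F (ι → F)) :
    Submodule F (ι → F) := (polB hQ).orthogonal W

theorem mem_perp (hQ : IsNondegenerateQuadraticForm Q) {W : Submodule F (ι → F)} {x : ι → F} :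
    x ∈ perp hQ W ↔ ∀ w ∈ W, QuadraticMap.polar Q w x = 0 := Iff.rfl

theorem mem_perp' (hQ : IsNondegenerateQuadraticForm Q) {W : Submodule F (ι → F)} {x : ι → F} :
    x ∈ perp hQ W ↔ ∀ w ∈ W, QuadraticMap.polar Q x w = 0 := by
  rw [mem_perp]
  constructor
  · intro h w hw
    rw [QuadraticMap.polar_comm]; exact h w hw
  · intro h w hw
    rw [QuadraticMap.polar_comm]; exact h w hw

theorem finrank_perp (hQ : IsNondegenerateQuadraticForm Q) (W : Submodule F (ι → F)) :
    Module.finrank F W + Module.finrank F (perp hQ W) = Fintype.card ι := by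
  have h := LinearMap.BilinForm.finrank_orthogonal (polB_nondeg hQ) W
  have h2 := Submodule.finrank_le W
  rw [Module.finrank_fintype_fun_eq_card] at h h2
  unfold perp
  omega

theorem perp_perp (hQ : IsNondegenerateQuadraticForm Q) (W : Submodule F (ι → F)) :
    perp hQ (perp hQ W) = W :=
  LinearMap.BilinForm.orthogonal_orthogonal (polB_nondeg hQ) (polB_isRefl hQ) W

theorem perp_anti (hQ : IsNondegenerateQuadraticForm Q) {W W' : Submodule F (ι → F)}
    (h : W ≤ W') : perp hQ W' ≤ perp hQ W :=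
  LinearMap.BilinForm.orthogonal_le h

theorem perp_sup (hQ : IsNondegenerateQuadraticForm Q) (A B : Submodule F (ι → F)) :
    perp hQ (A ⊔ B) = perp hQ A ⊓ perp hQ B := by
  apply le_antisymm
  · exact le_inf (perp_anti hQ le_sup_left) (perp_anti hQ le_sup_right)
  · rintro x ⟨hA, hB⟩ w hw
    obtain ⟨a, ha, b, hb, rfl⟩ := Submodule.mem_sup.1 hw
    rw [map_add, LinearMap.add_apply, hA a ha, hB b hb, add_zero]

theorem perp_inf (hQ : IsNondegenerateQuadraticForm Q) (A B : Submodule F (ι → F)) :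
    perp hQ (A ⊓ B) = perp hQ A ⊔ perp hQ B := by
  have h := perp_sup hQ (perp hQ A) (perp hQ B)
  rw [perp_perp, perp_perp] at h
  rw [← h, perp_perp]

theorem Q_add (Q : (ι → F) → F) (u v : ι → F) :
    Q (u + v) = Q u + Q v + QuadraticMap.polar Q u v := by
  unfold QuadraticMap.polar; ring

theorem polar_eq_zero_of_ts {W : Submodule F (ι → F)} (hW : IsTotallySingularQuad Q W)
    {u v : ι → F} (hu : u ∈ W) (hv : v ∈ W) : QuadraticMap.polar Q u v = 0 := by
  unfold QuadraticMap.polar
  rw [hW _ (W.add_mem hu hv), hW _ hu, hW _ hv]; ring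

theorem le_perp_of_ts (hQ : IsNondegenerateQuadraticForm Q) {W : Submodule F (ι → F)}
    (hW : IsTotallySingularQuad Q W) : W ≤ perp hQ W :=
  fun _ hx _ hw => polar_eq_zero_of_ts hW hw hx

theorem ts_finrank_le (hQ : IsNondegenerateQuadraticForm Q) {W : Submodule F (ι → F)}
    (hW : IsTotallySingularQuad Q W) : 2 * Module.finrank F W ≤ Fintype.card ι := by
  have h1 := Submodule.finrank_mono (le_perp_of_ts hQ hW)
  have h2 := finrank_perp hQ W
  omega

theorem perp_eq_of_lagr (hQ : IsNondegenerateQuadraticForm Q) {A : Submodule F (ι → F)}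
    (hA : IsLagr Q A) : perp hQ A = A := by
  symm
  apply Submodule.eq_of_le_of_finrank_le (le_perp_of_ts hQ hA.1)
  have h2 := finrank_perp hQ A
  have h3 := hA.2
  omega

theorem ts_sup (hQ : IsNondegenerateQuadraticForm Q) {A B : Submodule F (ι → F)}
    (hA : IsTotallySingularQuad Q A) (hB : IsTotallySingularQuad Q B) (hAB : B ≤ perp hQ A) :
    IsTotallySingularQuad Q (A ⊔ B) := by
  intro x hx
  obtain ⟨a, ha, b, hb, rfl⟩ := Submodule.mem_sup.1 hx
  rw [Q_add Q, hA a ha, hB b hb, (mem_perp hQ).1 (hAB hb) a ha]; ring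

end Cfsg.Agent.Lib.Helper51.OE
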