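/-
helper51 for helper57's farm: piece F1.
-/
import Cfsg.Agent.Lib.Helper51.OE.FBase

set_option autoImplicit false

namespace Cfsg.Agent.Lib.Helper51.OE

open Cfsg Cfsg.Geo Matrix Cfsg.Agent.Lib.Helper13.Asch Cfsg.Agent.Lib.Helper90.Sp
  Cfsg.Agent.Lib.Helper57.OE Cfsg.Agent.Lib.Helper37.OE
open scoped Kronecker MatrixGroups

variable {ι : Type} [Fintype ι] [DecidableEq ι] {F : Type*} [Field F] {Q : (ι → F) → F}

/-- F1 -/
theorem exists_lagr_ge (hQ : IsNondegenerateQuadraticForm Q) (hplus : IsPlusTypeOn Q ⊤)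
    (W : Submodule F (ι → F)) (hW : IsTotallySingularQuad Q W) :
    ∃ U, IsLagr Q U ∧ W ≤ U := by
  obtain ⟨U₀, -, hU₀, hdim⟩ := hplus
  rw [finrank_top, Module.finrank_fintype_fun_eq_card] at hdim
  have hL : IsLagr Q U₀ := ⟨hU₀, hdim⟩
  refine ⟨W ⊔ (perp hQ W ⊓ U₀), ⟨?_, ?_⟩, le_sup_left⟩
  · exact ts_sup hQ hW (fun x hx => hU₀ x hx.2) inf_le_left
  · have h1 := Submodule.finrank_sup_add_finrank_inf_eq W (perp hQ W ⊓ U₀)
    have h2 : W ⊓ (perp hQ W ⊓ U₀) = W ⊓ U₀ := by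
      rw [← inf_assoc, inf_eq_left.2 (le_perp_of_ts hQ hW)]
    have h3 : perp hQ W ⊓ U₀ = perp hQ (W ⊔ U₀) := by
      rw [perp_sup, perp_eq_of_lagr hQ hL]
    have h4 := finrank_perp hQ (W ⊔ U₀)
    have h5 := Submodule.finrank_sup_add_finrank_inf_eq W U₀
    rw [h2] at h1
    rw [← h3] at h4
    omega

end Cfsg.Agent.Lib.Helper51.OE
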