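/-
helper51 for helper57's farm: piece F5 (wrapper of helper13's `Om_parity`).
-/
import Cfsg.Agent.Lib.Helper51.OE.F1
import Cfsg.Agent.Lib.Helper86.OE.N0
import Cfsg.Agent.Lib.Helper13.OrthPar2

set_option autoImplicit false

namespace Cfsg.Agent.Lib.Helper51.OE

open Cfsg Cfsg.Geo Matrix Cfsg.Agent.Lib.Helper13.Asch Cfsg.Agent.Lib.Helper90.Sp
  Cfsg.Agent.Lib.Helper57.OE
open Cfsg.Agent.Lib.Helper44 Cfsg.Agent.Lib.Helper13.O Cfsg.Agent.Lib.Helper94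
open scoped Kronecker MatrixGroups

variable {ι : Type} [Fintype ι] [DecidableEq ι] {F : Type*} [Field F] {Q : (ι → F) → F}

/-- F5 -/
theorem sing_codim_one [Fintype F] (hι : Fintype.card ι ≠ 4)
    (hQ : IsNondegenerateQuadraticForm Q) (hplus : IsPlusTypeOn Q ⊤)
    {H : Subgroup (GL ι F)} (hH : H ≤ omegaGL Q) (W : Submodule F (ι → F))
    (hW : IsTotallySingularQuad Q W) (hdim : 2 * (Module.finrank F W + 1) = Fintype.card ι)
    (hHW : H ≤ subspaceStabilizer W) :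
    ∃ U, IsLagr Q U ∧ W ≤ U ∧ H ≤ subspaceStabilizer U := by
  obtain ⟨U1, hL, hWU⟩ := exists_lagr_ge hQ hplus W hW
  refine ⟨U1, hL, hWU, ?_⟩
  intro g hg
  rw [Cfsg.Agent.Lib.Helper94.mem_subspaceStabilizer_iff]
  set φ : (ι → F) ≃ₗ[F] (ι → F) := Cfsg.Agent.Lib.Helper94.glEquiv ι F g with hφdef
  have hφ : φ ∈ Om (quadOf Q hQ) := by
    have h1 : g ∈ omegaGL ⇑(quadOf Q hQ) := hH hg
    exact (mem_omegaGL_iff (quadOf Q hQ) g).1 h1
  have hs : ∀ w ∈ W, φ w ∈ W :=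
    (Cfsg.Agent.Lib.Helper94.mem_subspaceStabilizer_iff g W).1 (hHW hg)
  have hfr : Module.finrank F (ι → F) = Fintype.card ι := Module.finrank_fintype_fun_eq_card F
  have hpar := Om_parity (Cfsg.Agent.Lib.Helper86.OE.quadOf_nondeg hQ) (by rw [hfr]; exact hι)
    (U := U1) (fun u hu => hL.1 u hu) (by rw [hfr]; exact hL.2) hφ
  have hWmap : W.map (φ : (ι → F) →ₗ[F] (ι → F)) = W := Cfsg.Agent.Lib.Helper13.map_eq_of_forall_mem' φ W W rfl hs
  have hWle : W ≤ U1 ⊓ U1.map (φ : (ι → F) →ₗ[F] (ι → F)) := by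
    refine le_inf hWU ?_
    calc W = W.map (φ : (ι → F) →ₗ[F] (ι → F)) := hWmap.symm
      _ ≤ U1.map (φ : (ι → F) →ₗ[F] (ι → F)) := Submodule.map_mono hWU
  have h1 := Submodule.finrank_mono hWle
  have h2 : Module.finrank F ↥(U1 ⊓ U1.map (φ : (ι → F) →ₗ[F] (ι → F))) ≤ Module.finrank F U1 :=
    Submodule.finrank_mono inf_le_left
  have h3 : Module.finrank F ↥(U1 ⊓ U1.map (φ : (ι → F) →ₗ[F] (ι → F))) = Module.finrank F U1 := by
    rcases hpar with ⟨r, hr⟩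
    have := hL.2
    omega
  have h4 : U1 ⊓ U1.map (φ : (ι → F) →ₗ[F] (ι → F)) = U1 :=
    Submodule.eq_of_le_of_finrank_eq inf_le_left h3
  have h5 : U1 ≤ U1.map (φ : (ι → F) →ₗ[F] (ι → F)) := inf_eq_left.1 h4
  have h6 : U1 = U1.map (φ : (ι → F) →ₗ[F] (ι → F)) :=
    Submodule.eq_of_le_of_finrank_eq h5 (LinearEquiv.finrank_map_eq φ U1).symm
  intro u hu
  rw [h6]
  exact Submodule.mem_map_of_mem hu

end Cfsg.Agent.Lib.Helper51.OE
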